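import Cfsg.Agent.TS.BI3

/-!
The final configuration: the structure of a Sylow subgroup of the centraliser of `r₁ r₂`.
-/

set_option autoImplicit false

namespace Cfsg.Agent.TS
open MulAction Cfsg.Agent.SE Cfsg.Agent.H3.RelSyl Cfsg.Agent.H3.TW Cfsg.Agent.H5.Invol
open Subgroup (centralizer normalizer zpowers closure)

universe u

theorem four_mem {G : Type*} [Group G] [Finite G] {X : Subgroup G} (h : Nat.card X = 4) {x y z : G}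
    (hx : x ∈ X) (hy : y ∈ X) (i : Inv x) (j : Inv y) (n : x ≠ y) (hz : z ∈ X) :
    z = 1 ∨ z = x ∨ z = y ∨ z = x * y := by
  have e : ({1, x, y, x * y} : Set G) = X := Set.eq_of_subset_of_ncard_le (by
    rintro _ (rfl | rfl | rfl | rfl)
    exacts [one_mem X, hx, hy, mul_mem hx hy]) (by
    have : x * y ≠ 1 := fun e => n (by rw [eq_inv_of_mul_eq_one_left e, j.inv_eq])
    rw [Set.ncard_insert_of_notMem (by simp [i.1.symm, j.1.symm, this.symm]),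
      Set.ncard_insert_of_notMem (by simp [n, j.1]), Set.ncard_pair (by simp [i.1]),
      ← Nat.card_coe_set_eq]
    exact h.le)
  exact (e ▸ hz : z ∈ ({1, x, y, x * y} : Set G))

section Defs
variable {G Ω : Type*} [Group G] [MulAction G Ω] (Δ : Ω → Set (Subgroup G))

/-- One of the two members at `a`. -/
structure Sd (a b : Ω) (K S : Subgroup G) (r t : G) : Prop where
  hK : K ∈ Δ a
  hS : Syl S (KT Δ a K)
  hr : r ∈ S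
  ir : Inv r
  fix : ∀ x ∈ S, x • b = b ↔ x = 1 ∨ x = r
  two : ∀ x ∈ S, ∀ y ∈ S, x • b ≠ b → y • b ≠ b → (x * y) • b = b
  act : ∀ x ∈ S, x • b ≠ b → t * x * t⁻¹ = x * r

/-- The symmetric part of the configuration. -/
structure A9 (B T : Subgroup G) (a b : Ω) (K₁ K₂ S₁ S₂ L : Subgroup G) (r₁ r₂ t : G) : Prop where
  H : BH Δ 2 B
  hab : a ≠ b
  ha : PH Δ 2 B a
  hb : PH Δ 2 B b
  d1 : Sd Δ a b K₁ S₁ r₁ t
  d2 : Sd Δ a b K₂ S₂ r₂ t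
  ne : K₁ ≠ K₂
  hL : L ∈ Δ b
  ht : t ∈ B ⊓ KT Δ b L
  it : Inv t
  b1 : r₁ ∈ B
  b2 : r₂ ∈ B
  el : ∀ e, ∀ M ∈ Δ e, ∀ x ∈ KT Δ e M, P2 x → x * x = 1
  pT : IsPGroup 2 T
  s1 : S₁ ≤ T
  s2 : S₂ ≤ T
  tT : t ∈ T
  cf : T ≤ centralizer {r₁ * r₂}

end Defs

variable {G Ω : Type u} [Group G] [Finite G] [MulAction G Ω] {Δ : Ω → Set (Subgroup G)}
  {a b e : Ω} {K K₁ K₂ S S₁ S₂ L M M' B T : Subgroup G} {g x y r r₁ r₂ t σ : G}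

omit [Finite G] in
theorem A9.symm (h : A9 Δ B T a b K₁ K₂ S₁ S₂ L r₁ r₂ t) : A9 Δ B T a b K₂ K₁ S₂ S₁ L r₂ r₁ t :=
  ⟨h.H, h.hab, h.ha, h.hb, h.d2, h.d1, h.ne.symm, h.hL, h.ht, h.it, h.b2, h.b1, h.el, h.pT, h.s2,
    h.s1, h.tT, h.H.comm _ h.b1 _ h.b2 ▸ h.cf⟩

omit [Finite G] in
theorem A9.sq (h : A9 Δ B T a b K₁ K₂ S₁ S₂ L r₁ r₂ t) : ∀ x ∈ S₁, x * x = 1 := fun x hx =>
  h.el a K₁ h.d1.hK x (h.d1.hS.1 hx) (P2.of_mem h.pT (h.s1 hx))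

omit [Finite G] in
theorem Sd.cz_of (d : Sd Δ a b K S r t) (he : ∀ x ∈ S, x * x = 1) (hσ : σ ∈ S) (n : σ • b ≠ b)
    (h1 : x * r = r * x) (h2 : x * σ = σ * x) : x ∈ Cz S := mem_cz.2 fun s hs => by
  have k : ∀ s ∈ S, s • b = b → s * x = x * s := fun s hs e => by
    rcases (d.fix s hs).1 e with rfl | rfl
    · rw [one_mul, mul_one]
    · exact h1.symm
  by_cases e : s • b = b
  · exact k s hs e
  · have := k _ (mul_mem hs hσ) (d.two s hs σ hσ e n)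
    rwa [mul_assoc, ← h2, ← mul_assoc, ← mul_assoc, mul_left_inj] at this

namespace TC
variable (c : TC G Ω Δ)
include c

theorem sd_conj (d : Sd Δ a b K S r t) (h1 : g • a = a) (h2 : g • b = b) (h3 : g * t = t * g) :
    Sd Δ a b (cj g K) (cj g S) (g * r * g⁻¹) t := by
  have k : ∀ x : G, (g * x * g⁻¹) • b = b ↔ x • b = b := fun x => by
    rw [mul_smul, mul_smul, inv_smul_eq_iff.2 h2.symm, smul_eq_iff_eq_inv_smul,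
      inv_smul_eq_iff.2 h2.symm]
  refine ⟨c.cj_mem h1 d.hK, by simpa only [c.cj_kt, h1] using d.hS.cj' g, conj_mem_cj d.hr,
    d.ir.conj g, ?_, ?_, ?_⟩
  · rintro _ ⟨x, hx, rfl⟩
    simp [← d.fix x hx, k]
  · rintro _ ⟨x, hx, rfl⟩ _ ⟨y, hy, rfl⟩ n1 n2
    rw [← map_mul]
    exact (k _).2 (d.two x hx y hy (fun e => n1 ((k x).2 e)) fun e => n2 ((k y).2 e))
  · rintro _ ⟨x, hx, rfl⟩ n
    show t * (g * x * g⁻¹) * t⁻¹ = g * x * g⁻¹ * _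
    calc _ = t * g * x * (t * g)⁻¹ := by group
      _ = g * (t * x * t⁻¹) * g⁻¹ := by rw [← h3]; group
      _ = _ := by rw [d.act x hx fun e => n ((k x).2 e)]; group

theorem split2 (hZ : ZOdd Δ) (hM : M ∈ Δ e) (hM' : M' ∈ Δ e) (hne : M ≠ M') (pT : IsPGroup 2 T)
    (hg : g ∈ T) (hx : x ∈ T) (x1 : x ∈ KT Δ e M) (y1 : y ∈ KT Δ e M') (h1 : cj g M = M)
    (h2 : cj g M' = M') (h : g * (x * y) = x * y * g) : g * x = x * g := by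
  have := c.kt_p2 hZ hM hM' hne (mul_mem (inv_mem x1) (c.kt_norm x1 hM h1)) (by
    rw [show x⁻¹ * (g * x * g⁻¹) = x⁻¹ * (g * (x * y)) * y⁻¹ * g⁻¹ by group, h,
      show x⁻¹ * (x * y * g) * y⁻¹ * g⁻¹ = y * (g * y⁻¹ * g⁻¹) by group]
    exact mul_mem y1 (c.kt_norm (inv_mem y1) hM' h2))
    (P2.of_mem pT (mul_mem (inv_mem hx) (mul_mem (mul_mem hg hx) (inv_mem hg))))
  rwa [inv_mul_eq_one, eq_mul_inv_iff_mul_eq, eq_comm] at this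

variable (h : A9 Δ B T a b K₁ K₂ S₁ S₂ L r₁ r₂ t)
include h

theorem a9_tri : ¬ Tri Δ a := c.not_tri h.H h.hab h.ha h.hb

theorem a9_fix : T ≤ stabilizer G a := fun g hg => by
  haveI : Fact (Nat.Prime 2) := ⟨Nat.prime_two⟩
  by_contra hn
  obtain ⟨x, h1, h2, h3⟩ := exists_mem_normalizer h.pT (inf_le_left : T ⊓ stabilizer G a ≤ T)
    fun e => hn (e hg).2
  refine h.H.nsf _ a _ (fun e => h2 ⟨h1, e⟩) (c.conj a x _ h.d1.hK)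
    ⟨_, c.cj_kt x a K₁ ▸ h.d1.hS.cj' x, ?_⟩
  rintro _ ⟨s, hs, rfl⟩
  exact (norm_conj h3 ⟨h.s1 hs, c.kt_fix h.d1.hK (h.d1.hS.1 hs)⟩).2

theorem a9_cj (hx : x ∈ T) (e : cj x K₁ = K₁) : cj x K₂ = K₂ :=
  ((c.swap (c.a9_tri h) h.d1.hK h.d2.hK h.ne (c.a9_fix h hx)).resolve_right
    fun k => h.ne (e.symm.trans k.1)).2

theorem a9_t : cj t K₁ = K₁ := c.ph_cj h.H h.ha h.d1.hK h.ht.1

theorem a9_r (hx : x ∈ T) (e : cj x K₁ = K₁) : x * r₁ = r₁ * x :=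
  c.split2 h.H.odd h.d1.hK h.d2.hK h.ne h.pT hx (h.s1 h.d1.hr) (h.d1.hS.1 h.d1.hr)
    (h.d2.hS.1 h.d2.hr) e (c.a9_cj h hx e) (mem_C.1 (h.cf hx))

omit c in
theorem a9_mem (hx : x ∈ T) (e : x ∈ KT Δ a K₁) : x ∈ S₁ :=
  h.d1.hS.max (Q := T ⊓ KT Δ a K₁) (le_inf h.s1 h.d1.hS.1) inf_le_right (h.pT.to_le inf_le_left)
    ⟨hx, e⟩

theorem a9_ex : ∃ σ ∈ S₁, σ • b ≠ b := by
  by_contra! k
  exact h.H.nsf a b K₁ h.hab h.d1.hK ⟨S₁, h.d1.hS, k⟩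

theorem a9_or (hx : x ∈ T) (e : cj x K₁ = K₁) : x ∈ Cz S₁ ∨ x * t ∈ Cz S₁ := by
  obtain ⟨σ, hσ, n⟩ := c.a9_ex h
  have e1 := c.a9_r h hx e
  have m := a9_mem h (mul_mem (mul_mem hx (h.s1 hσ)) (inv_mem hx)) (c.kt_norm (h.d1.hS.1 hσ) h.d1.hK e)
  have n1 : (x * σ * x⁻¹) • b ≠ b := fun k => n ((h.d1.fix σ hσ).2 (((h.d1.fix _ m).1 k).imp
    (by simp) fun k => by rwa [mul_inv_eq_iff_eq_mul, ← e1, mul_right_inj] at k))
  have σ1 := inv_eq_of_mul_eq_one_right (h.sq σ hσ)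
  refine ((h.d1.fix _ (mul_mem m hσ)).1 (h.d1.two _ m σ hσ n1 n)).imp
    (fun k => h.d1.cz_of h.sq hσ n e1 ?_) fun k => h.d1.cz_of h.sq hσ n ?_ ?_
  · rwa [mul_eq_one_iff_eq_inv, σ1, mul_inv_eq_iff_eq_mul] at k
  · rw [mul_assoc, h.H.comm t h.ht.1 _ h.b1, ← mul_assoc, e1, mul_assoc]
  · rw [← eq_mul_inv_iff_mul_eq, σ1, comm_of_sq h.sq _ h.d1.hr σ hσ] at k
    calc x * t * σ = x * (t * σ * t⁻¹) * t := by group
      _ = x * σ * x⁻¹ * (x * r₁) * t := by rw [h.d1.act σ hσ n]; group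
      _ = σ * (r₁ * r₁) * (x * t) := by rw [k, e1]; group
      _ = _ := by rw [h.d1.ir.2, mul_one]

theorem a9_K : S₁ ≤ K₁ := fun _ hx =>
  c.kt_mem h.H.odd h.d1.hK (h.d1.hS.1 hx) (P2.of_mem h.pT (h.s1 hx))

theorem a9_inner (hx : x ∈ T) (e : cj x K₁ = K₁) (k : x ∈ Cz S₁) : ∃ s ∈ S₁, x * s ∈ Cz K₁ :=
  let ⟨_, hk⟩ := P2.of_mem h.pT hx
  IL2 (c.qs a _ h.d1.hK) (c.four a _ h.d1.hK) (h.d1.hS.mono (c.a9_K h) le_sup_left) h.sq hk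
    (norm_of_cj_eq e) k

theorem a9_cz : S₂ ≤ Cz K₁ := h.d2.hS.1.trans (c.kt_le_cz h.d2.hK h.d1.hK h.ne.symm)

theorem a9_one (hx : x ∈ T) (h1 : x ∈ Cz K₁) (h2 : x ∈ Cz K₂) : x = 1 :=
  c.czdd h.H h.hab h.ha h.hb (mem_cz_dd.2 fun _ hM =>
    (c.pair (c.a9_tri h) h.d1.hK h.d2.hK h.ne hM).elim (fun e => e ▸ h1) fun e => e ▸ h2)
    (P2.of_mem h.pT hx)

theorem a9_cm (hx : x ∈ T) (hy : y ∈ T) (h1 : x ∈ Cz K₁) (h2 : y ∈ Cz K₂) : x * y = y * x := by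
  have e1 := norm_of_cj_eq (c.a9_cj h hx (cj_eq_of_cz h1))
  have e2 := norm_of_cj_eq (c.a9_cj h.symm hy (cj_eq_of_cz h2))
  have := c.a9_one h (mul_mem (mul_mem (mul_mem hx hy) (inv_mem hx)) (inv_mem hy))
    (by simpa only [mul_assoc] using mul_mem h1 (norm_conj (nz_cz le_rfl e2) (inv_mem h1)))
    (mul_mem (norm_conj (nz_cz le_rfl e1) h2) (inv_mem h2))
  rwa [mul_inv_eq_one, mul_inv_eq_iff_eq_mul] at this

theorem a9_both (hx : x ∈ T) (e : cj x K₁ = K₁) (h1 : x ∈ Cz S₁) (h2 : x ∈ Cz S₂) :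
    ∃ u ∈ S₁, ∃ v ∈ S₂, x = u * v := by
  obtain ⟨u, hu, e1⟩ := c.a9_inner h hx e h1
  obtain ⟨v, hv, e2⟩ := c.a9_inner h.symm hx (c.a9_cj h hx e) h2
  have e3 := mem_cz.1 (c.a9_cz h hv) u (c.a9_K h hu)
  have := c.a9_one h (mul_mem (mul_mem hx (h.s1 hu)) (h.s2 hv)) (mul_mem e1 (c.a9_cz h hv))
    (by rw [mul_assoc, e3, ← mul_assoc]; exact mul_mem e2 (c.a9_cz h.symm hu))
  refine ⟨u⁻¹, inv_mem hu, v⁻¹, inv_mem hv, ?_⟩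
  rwa [mul_assoc, e3, mul_eq_one_iff_eq_inv, mul_inv_rev] at this

theorem a9_side (hx : x ∈ T) (e : cj x K₁ = K₁) (h1 : x ∈ Cz S₁) (h2 : x * t ∈ Cz S₂) : False := by
  obtain ⟨u, hu, e1⟩ := c.a9_inner h hx e h1
  have m := mul_mem hx h.tT
  obtain ⟨v, hv, e2⟩ := c.a9_inner h.symm m
    (by rw [← cj_cj, c.a9_t h.symm, c.a9_cj h hx e]) h2
  have m1 := mul_mem hx (h.s1 hu)
  have m2 := mul_mem m (h.s2 hv)
  have p1 : u * (x * t * v) ∈ Cz K₂ := mul_mem (c.a9_cz h.symm hu) e2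
  have p2 : (x * u)⁻¹ * v⁻¹ ∈ Cz K₁ := mul_mem (inv_mem e1) (inv_mem (c.a9_cz h hv))
  have q1 := mul_mem (h.s1 hu) m2
  have e3 : t = u * (x * t * v) * ((x * u)⁻¹ * v⁻¹) := by
    rw [mul_assoc u, ← mul_assoc (x * t * v), ← c.a9_cm h (inv_mem m1) m2 (inv_mem e1) e2]; group
  have e4 := c.a9_cm h (mul_mem (inv_mem m1) (inv_mem (h.s2 hv))) q1 p2 p1
  generalize u * (x * t * v) = p at p1 q1 e3 e4
  generalize (x * u)⁻¹ * v⁻¹ = q at p2 e3 e4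
  have k : ∀ s ∈ B ⊓ KT Δ a K₁, s = 1 ∨ s = r₁ := fun s hs => or_iff_not_imp_left.2 fun n =>
    eq_of_card_two (h.ha _ h.d1.hK) hs ⟨h.b1, h.d1.hS.1 h.d1.hr⟩ n h.d1.ir.1
  have e5 := c.bd' h.H h.hab h.ha h.hb h.d1.hK h.hL (R := T ⊓ Cz K₂ ⊓ centralizer {t})
    (h.pT.to_le (inf_le_left.trans inf_le_left)) ((ac_cz h.d2.hK).mono (inf_le_left.trans inf_le_right))
    (fun r hr s hs => by
      by_cases n : s = 1
      · rw [n, one_mul, mul_one]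
      · rw [eq_of_card_two (h.hb _ h.hL) hs h.ht n h.it.1]; exact mem_C.1 hr.2)
    (fun s hs => ⟨⟨(k s hs).elim (fun e => e ▸ one_mem T) fun e => e ▸ h.s1 h.d1.hr,
      c.kt_le_cz h.d1.hK h.d2.hK h.ne hs.2⟩, mem_C.2 (h.H.comm s hs.1 t h.ht.1)⟩)
    (x := p) ⟨⟨q1, p1⟩, mem_C.2 (by rw [e3, mul_assoc p q, e4])⟩
  obtain ⟨σ, hσ, n⟩ := c.a9_ex h
  have e6 := h.d1.act σ hσ n
  have e7 : p * σ = σ * p := comm_of_sq h.sq p (a9_mem h q1 e5.2) σ hσ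
  rw [mul_inv_eq_iff_eq_mul, e3, mul_assoc, ← mem_cz.1 p2 σ (c.a9_K h hσ), ← mul_assoc, e7,
    mul_assoc, mul_left_inj, eq_comm, mul_eq_left] at e6
  exact h.d1.ir.1 e6

/-- The elements of `T` which normalise `K₁`. -/
theorem ST (hx : x ∈ T) (e : cj x K₁ = K₁) : ∃ u ∈ S₁, ∃ v ∈ S₂, x = u * v ∨ x = u * v * t := by
  have m := mul_mem hx h.tT
  have e' : cj (x * t) K₁ = K₁ := by rw [← cj_cj, c.a9_t h, e]
  rcases c.a9_or h hx e with h1 | h1 <;> rcases c.a9_or h.symm hx (c.a9_cj h hx e) with h2 | h2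
  · obtain ⟨u, hu, v, hv, k⟩ := c.a9_both h hx e h1 h2
    exact ⟨u, hu, v, hv, Or.inl k⟩
  · exact (c.a9_side h hx e h1 h2).elim
  · exact (c.a9_side h m e' h1 (by rwa [mul_assoc, h.it.2, mul_one])).elim
  · obtain ⟨u, hu, v, hv, k⟩ := c.a9_both h m e' h1 h2
    exact ⟨u, hu, v, hv, Or.inr (by rw [← k, mul_assoc, h.it.2, mul_one])⟩

end TC
end Cfsg.Agent.TS
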